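import Mathlib
import Cfsg.Prelude.Def_OddOrderLocal
import Cfsg.Statements.S1403
import Cfsg.Statements.S1404
import Cfsg.Statements.S1405
import Cfsg.Statements.S1409
import Cfsg.Statements.S1414
import Cfsg.Statements.S1415
import Cfsg.Statements.S1417
import Cfsg.Statements.S1418
import Cfsg.Statements.S1422
import Cfsg.Statements.S1423
import Cfsg.Statements.S1426
import Cfsg.Statements.S1427
import Cfsg.Statements.S1428
import Cfsg.Agent.Lib.Helper46.Amalgam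

/-!
# The sigma-partition (Bender–Glauberman Theorem 13.9), without S1430: package statements

Team project led by helper98.  Paper proof: notes 2109 and 2110 (topic `S1430`).
Each `Lem…` below is the exact statement of one package; a package is a theorem
`… : Cfsg.Agent.Lib.Helper98.BG13.Lem….{u}` proved in the taker's own Lib file.

`IsSylowIn p S H` (from `Helper46.Amalgam`) means
`S ≤ H ∧ Nat.card S = p ^ (Nat.card H).factorization p`.
`Hy hG` bundles the earlier statements of the chain (for the fixed group `G`) that the proof uses.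
`BadPair M H Q q` is a would-be counterexample: non-conjugate maximal subgroups `M`, `H`,
`q ∈ σ(M) ∩ σ(H)`, `Q` a Sylow `q`-subgroup of `G` with `N_G(Q) ≤ M ∩ H`.
-/

set_option autoImplicit false

namespace Cfsg.Agent.Lib.Helper98.BG13

open Cfsg Cfsg.Agent.Lib.Helper46

universe u

/-- The earlier statements of the Bender–Glauberman chain used in the proof of 13.9, for `G`. -/
structure Hy {G : Type u} [Group G] [Finite G] (hG : Cfsg.IsMinSimpleOddOrder G) : Prop where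
  h1403 : type_of% (@Cfsg.CfsgFrozen.S1403 G _ _ hG)
  h1404 : type_of% (@Cfsg.CfsgFrozen.S1404 G _ _ hG)
  h1405 : type_of% (@Cfsg.CfsgFrozen.S1405 G _ _ hG)
  h1409 : type_of% (@Cfsg.CfsgFrozen.S1409 G _ _ hG)
  h1414 : type_of% (@Cfsg.CfsgFrozen.S1414 G _ _ hG)
  h1415 : type_of% (@Cfsg.CfsgFrozen.S1415 G _ _ hG)
  h1417 : type_of% (@Cfsg.CfsgFrozen.S1417 G _ _ hG)
  h1418 : type_of% (@Cfsg.CfsgFrozen.S1418 G _ _ hG)
  h1422 : type_of% (@Cfsg.CfsgFrozen.S1422 G _ _ hG)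
  h1423 : type_of% (@Cfsg.CfsgFrozen.S1423 G _ _ hG)
  h1426 : type_of% (@Cfsg.CfsgFrozen.S1426 G _ _ hG)
  h1427 : type_of% (@Cfsg.CfsgFrozen.S1427 G _ _ hG)
  h1428 : type_of% (@Cfsg.CfsgFrozen.S1428 G _ _ hG)

/-- A would-be counterexample to the sigma-partition, normalized: `Q` is a common Sylow
`q`-subgroup (Sylow in `G`) whose normalizer lies in both `M` and `H`. -/
structure BadPair {G : Type u} [Group G] (M H Q : Subgroup G) (q : ℕ) : Prop where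
  hM : IsCoatom M
  hH : IsCoatom H
  hnc : ∀ g : G, H ≠ M.map (MulAut.conj g).toMonoidHom
  hqM : q ∈ Cfsg.sigma M
  hqH : q ∈ Cfsg.sigma H
  hQ : IsSylowIn q Q ⊤
  hNM : Subgroup.normalizer (Q : Set G) ≤ M
  hNH : Subgroup.normalizer (Q : Set G) ≤ H

/-- Package A (basic structure).  `Q` is abelian, `Q ≤ M_σ`, `q ∉ α(M)`, `M = M_α N_G(Q)`,
`M_σ` is not nilpotent, `τ₂(M) = ∅`, `M_β ≠ 1`. -/
def LemA : Prop :=
  ∀ {G : Type u} [Group G] [Finite G] (hG : Cfsg.IsMinSimpleOddOrder G) (_hy : Hy hG)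
    (M H Q : Subgroup G) (q : ℕ) (_hb : BadPair M H Q q),
    (∀ x ∈ Q, ∀ y ∈ Q, x * y = y * x) ∧ Q ≤ Cfsg.sigmaCore M ∧ q ∉ Cfsg.alpha M ∧
      M = Cfsg.alphaCore M ⊔ Subgroup.normalizer (Q : Set G) ∧
      ¬ Group.IsNilpotent ↥(Cfsg.sigmaCore M) ∧ (∀ p : ℕ, p ∉ Cfsg.tau2 M) ∧
      Cfsg.piCoreOf (Cfsg.beta M) M ≠ ⊥

/-- Package B (centralizing `Q`).  `M_σ ∩ H ≤ C(Q)` and `N_G(Q) ∩ M' ≤ C(Q)`. -/
def LemB : Prop :=
  ∀ {G : Type u} [Group G] [Finite G] (hG : Cfsg.IsMinSimpleOddOrder G) (_hy : Hy hG)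
    (M H Q : Subgroup G) (q : ℕ) (_hb : BadPair M H Q q),
    Cfsg.sigmaCore M ⊓ H ≤ Subgroup.centralizer (Q : Set G) ∧
      Subgroup.normalizer (Q : Set G) ⊓ ⁅M, M⁆ ≤ Subgroup.centralizer (Q : Set G)

/-- Package C1 (complements inside `N_G(Q)`).  Every `p`-subgroup `P` of `N_G(Q)`, `p ∉ σ(M)`,
lies in a complement `E ≤ N_G(Q)` of `M_σ` in `M`; and `C_Q(E) = 1` for every complement `E`
of `M_σ` in `M`. -/
def LemC1 : Prop :=
  ∀ {G : Type u} [Group G] [Finite G] (hG : Cfsg.IsMinSimpleOddOrder G) (_hy : Hy hG)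
    (M H Q : Subgroup G) (q : ℕ) (_hb : BadPair M H Q q),
    (∀ (p : ℕ) (P : Subgroup G), p.Prime → p ∉ Cfsg.sigma M → IsPGroup p P →
        P ≤ Subgroup.normalizer (Q : Set G) →
        ∃ E : Subgroup G, P ≤ E ∧ E ≤ Subgroup.normalizer (Q : Set G) ∧
          Cfsg.IsComplIn E (Cfsg.sigmaCore M) M) ∧
      ∀ E : Subgroup G, Cfsg.IsComplIn E (Cfsg.sigmaCore M) M →
        Q ⊓ Subgroup.centralizer (E : Set G) = ⊥

/-- Package C2 (the choice of `P`).  For a complement `E ≤ N_G(Q)` of `M_σ` in `M`: some prime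
of `τ₁(M)` divides `|E|`, and every subgroup `P ≤ E` of order `p ∈ τ₁(M)` has `C_Q(P) = 1`. -/
def LemC2 : Prop :=
  ∀ {G : Type u} [Group G] [Finite G] (hG : Cfsg.IsMinSimpleOddOrder G) (_hy : Hy hG)
    (M H Q : Subgroup G) (q : ℕ) (_hb : BadPair M H Q q)
    (E : Subgroup G) (_hEN : E ≤ Subgroup.normalizer (Q : Set G))
    (_hE : Cfsg.IsComplIn E (Cfsg.sigmaCore M) M),
    (∃ p : ℕ, p ∈ Cfsg.tau1 M ∧ p ∣ Nat.card E) ∧
      ∀ (p : ℕ) (P : Subgroup G), p ∈ Cfsg.tau1 M → P ≤ E → Nat.card P = p →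
        Q ⊓ Subgroup.centralizer (P : Set G) = ⊥

/-- Package C3.  A subgroup of prime order `p` of `N_G(Q)` not centralizing `Q` has
`p ∈ τ₁(M)`. -/
def LemC3 : Prop :=
  ∀ {G : Type u} [Group G] [Finite G] (hG : Cfsg.IsMinSimpleOddOrder G) (_hy : Hy hG)
    (M H Q : Subgroup G) (q : ℕ) (_hb : BadPair M H Q q)
    (p : ℕ) (P : Subgroup G) (_hp : p.Prime) (_hP : Nat.card P = p)
    (_hPN : P ≤ Subgroup.normalizer (Q : Set G))
    (_hPQ : ¬ P ≤ Subgroup.centralizer (Q : Set G)),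
    p ∈ Cfsg.tau1 M

/-- Package D (fixed points of `P` on `M_β`, and the final contradiction).  `P ≤ N_G(Q)` of
prime order `p ∉ σ(M)` with `C_Q(P) = 1`.  Then `C_{M_σ}(P)` contains a subgroup `X` of prime
order `r ∈ β(M)`, and `C_{M_σ}(P)` is not contained in `H`. -/
def LemD : Prop :=
  ∀ {G : Type u} [Group G] [Finite G] (hG : Cfsg.IsMinSimpleOddOrder G) (_hy : Hy hG)
    (M H Q : Subgroup G) (q : ℕ) (_hb : BadPair M H Q q)
    (p : ℕ) (P : Subgroup G) (_hp : p.Prime) (_hpM : p ∉ Cfsg.sigma M) (_hP : Nat.card P = p)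
    (_hPN : P ≤ Subgroup.normalizer (Q : Set G))
    (_hQP : Q ⊓ Subgroup.centralizer (P : Set G) = ⊥),
    (∃ (r : ℕ) (X : Subgroup G), r ∈ Cfsg.beta M ∧ Nat.card X = r ∧
        X ≤ Cfsg.sigmaCore M ⊓ Subgroup.centralizer (P : Set G)) ∧
      ¬ Cfsg.sigmaCore M ⊓ Subgroup.centralizer (P : Set G) ≤ H

/-- Package E1 (no `τ₂`).  `L ≠ M` maximal over `N_G(P)`, `|P| = p ∈ τ₁(M)`, `X ≤ C(P)` of
order `r` with `M` the unique maximal subgroup containing `C_G(X)`.  Then `r ∉ τ₂(L)`. -/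
def LemE1 : Prop :=
  ∀ {G : Type u} [Group G] [Finite G] (hG : Cfsg.IsMinSimpleOddOrder G) (_hy : Hy hG)
    (M L : Subgroup G) (_hM : IsCoatom M) (_hL : IsCoatom L) (_hLM : L ≠ M)
    (p : ℕ) (P : Subgroup G) (_hp : p ∈ Cfsg.tau1 M) (_hP : Nat.card P = p)
    (_hNP : Subgroup.normalizer (P : Set G) ≤ L)
    (r : ℕ) (X : Subgroup G) (_hX : Nat.card X = r)
    (_hXP : X ≤ Subgroup.centralizer (P : Set G))
    (_hCX : Subgroup.centralizer (X : Set G) ≤ M)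
    (_hu : ∀ L' : Subgroup G, IsCoatom L' → Subgroup.centralizer (X : Set G) ≤ L' → L' = M),
    r ∉ Cfsg.tau2 L

/-- Package E2 (the `τ₃` case).  `X ≤ C ≤ L` with `|X| = r ∈ τ₃(L)`, and `Y ≤ C` a `t`-group,
`t ∉ σ(L)`.  Then some `C`-conjugate of `Y` normalizes `X`. -/
def LemE2 : Prop :=
  ∀ {G : Type u} [Group G] [Finite G] (hG : Cfsg.IsMinSimpleOddOrder G) (_hy : Hy hG)
    (L : Subgroup G) (_hL : IsCoatom L)
    (r : ℕ) (X : Subgroup G) (_hr : r ∈ Cfsg.tau3 L) (_hX : Nat.card X = r)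
    (C : Subgroup G) (_hCL : C ≤ L) (_hXC : X ≤ C)
    (t : ℕ) (Y : Subgroup G) (_ht : t.Prime) (_htL : t ∉ Cfsg.sigma L) (_hY : IsPGroup t Y)
    (_hYC : Y ≤ C),
    ∃ c ∈ C, Y.map (MulAut.conj c).toMonoidHom ≤ Subgroup.normalizer (X : Set G)

/-- Package E3 (pure group theory).  `X, Y ≤ C`, `X` an `r`-group, `Y` a `t`-group, and neither
`r` nor `t` divides `|C'|`.  Then some `C`-conjugate of `Y` centralizes `X`. -/
def LemE3 : Prop :=
  ∀ {G : Type u} [Group G] [Finite G] (C X Y : Subgroup G) (r t : ℕ), r.Prime → t.Prime →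
    X ≤ C → Y ≤ C → IsPGroup r X → IsPGroup t Y →
    ¬ r ∣ Nat.card ↥⁅C, C⁆ → ¬ t ∣ Nat.card ↥⁅C, C⁆ →
    ∃ c ∈ C, Y.map (MulAut.conj c).toMonoidHom ≤ Subgroup.centralizer (X : Set G)

/-- Package E (the maximal subgroup over `N_G(P)`).  `M`, `H` non-conjugate maximal subgroups,
`|P| = p ∈ τ₁(M) ∩ τ₁(H)`, `X ≤ M ∩ C(P)` of order `r ∈ β(M)`, `X' ≤ H ∩ C(P)` of order
`r' ∈ β(H)`.  Then for some `c ∈ C(P)`: `cX'c⁻¹ ≤ M` or `cXc⁻¹ ≤ H`. -/
def LemE : Prop :=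
  ∀ {G : Type u} [Group G] [Finite G] (hG : Cfsg.IsMinSimpleOddOrder G) (_hy : Hy hG)
    (M H : Subgroup G) (_hM : IsCoatom M) (_hH : IsCoatom H)
    (_hnc : ∀ g : G, H ≠ M.map (MulAut.conj g).toMonoidHom)
    (p : ℕ) (P : Subgroup G) (_hpM : p ∈ Cfsg.tau1 M) (_hpH : p ∈ Cfsg.tau1 H)
    (_hP : Nat.card P = p)
    (r : ℕ) (X : Subgroup G) (_hr : r ∈ Cfsg.beta M) (_hXM : X ≤ M) (_hX : Nat.card X = r)
    (_hXP : X ≤ Subgroup.centralizer (P : Set G))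
    (r' : ℕ) (X' : Subgroup G) (_hr' : r' ∈ Cfsg.beta H) (_hX'H : X' ≤ H)
    (_hX' : Nat.card X' = r') (_hX'P : X' ≤ Subgroup.centralizer (P : Set G)),
    ∃ c ∈ Subgroup.centralizer (P : Set G),
      X'.map (MulAut.conj c).toMonoidHom ≤ M ∨ X.map (MulAut.conj c).toMonoidHom ≤ H

/-- Package F (pulling `C_{M_σ}(P)` into `H`).  `E ≤ N_G(Q)` a complement of `M_σ` in `M`,
`P ≤ E` of order `p ∈ τ₁(M)`, and `X₁ ≤ M ∩ C(P)` of order `r' ∈ β(H)`.  Then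
`C_{M_σ}(P) ≤ H`. -/
def LemF : Prop :=
  ∀ {G : Type u} [Group G] [Finite G] (hG : Cfsg.IsMinSimpleOddOrder G) (_hy : Hy hG)
    (M H Q : Subgroup G) (q : ℕ) (_hb : BadPair M H Q q)
    (E : Subgroup G) (_hEN : E ≤ Subgroup.normalizer (Q : Set G))
    (_hE : Cfsg.IsComplIn E (Cfsg.sigmaCore M) M)
    (p : ℕ) (P : Subgroup G) (_hp : p ∈ Cfsg.tau1 M) (_hPE : P ≤ E) (_hP : Nat.card P = p)
    (r' : ℕ) (X₁ : Subgroup G) (_hr' : r' ∈ Cfsg.beta H) (_hX₁ : Nat.card X₁ = r')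
    (_hX₁M : X₁ ≤ M) (_hX₁P : X₁ ≤ Subgroup.centralizer (P : Set G)),
    Cfsg.sigmaCore M ⊓ Subgroup.centralizer (P : Set G) ≤ H

end Cfsg.Agent.Lib.Helper98.BG13
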